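import Mathlib
import Cfsg.Agent.Lib.Helper14.Spec.Defs

set_option autoImplicit false

/-!
# S2362 (SPEC), package [TEXP]

An isometry commuting with an irreducible isometry `x` (`x² ≠ 1`) in dimension `2 d` over the
field with `q` elements has order dividing `q ^ d + 1`: the adjoint with respect to the polar
form induces on the commutant `K` of `x` (a field with `q ^ (2 d)` elements) an `F`-algebra
involution `σ ≠ 1`, which is the `d`-th power of the Frobenius; an isometry `t` in `K`
satisfies `σ t * t = 1`.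
-/

namespace Cfsg.Agent.Lib.Helper72.Spec

open Module Cfsg.Agent.Lib.Helper14.Spec

universe u

/-- the statement of [TEXP] for a given model `K` of the commutant -/
theorem texp_aux {F : Type u} [Field F] [Fintype F] {W : Type u} [AddCommGroup W] [Module F W]
    [FiniteDimensional F W] (Q : QuadraticForm F W)
    (hB : (QuadraticMap.polarBilin Q).Nondegenerate) (d : ℕ) (hd : finrank F W = 2 * d)
    (x : W →ₗ[F] W) (hxQ : ∀ v, Q (x v) = Q v) (hxx : x * x ≠ 1)
    (K : Type u) [Field K] [Algebra F K] [Fintype K] (φ : K →ₐ[F] Module.End F W)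
    (hφ : Function.Injective φ) (hrange : ∀ t : W →ₗ[F] W, t * x = x * t ↔ t ∈ Set.range φ)
    (hcard : Fintype.card K = Fintype.card F ^ finrank F W)
    (t : W →ₗ[F] W) (htx : t * x = x * t) (htQ : ∀ v, Q (t v) = Q v) :
    t ^ (Fintype.card F ^ d + 1) = 1 := by
  classical
  obtain ⟨B, hBdef⟩ : ∃ B : LinearMap.BilinForm F W, B = QuadraticMap.polarBilin Q := ⟨_, rfl⟩
  rw [← hBdef] at hB
  have hBsymm : ∀ v w, B v w = B w v := fun v w => by
    simp only [hBdef, QuadraticMap.polarBilin_apply_apply]
    exact QuadraticMap.polar_comm _ _ _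
  have hiso : ∀ (s : W →ₗ[F] W), (∀ v, Q (s v) = Q v) → ∀ v w, B (s v) (s w) = B v w := by
    intro s hs v w
    simp only [hBdef, QuadraticMap.polarBilin_apply_apply, QuadraticMap.polar]
    rw [← map_add, hs, hs, hs]
  obtain ⟨adj, hadj, huniq⟩ : ∃ adj : (W →ₗ[F] W) → (W →ₗ[F] W),
      (∀ a v w, B (adj a v) w = B v (a w)) ∧
        ∀ a ψ : W →ₗ[F] W, (∀ v w, B (ψ v) w = B v (a w)) → ψ = adj a :=
    ⟨fun a => LinearMap.BilinForm.leftAdjointOfNondegenerate B hB a,
      fun a v w => LinearMap.BilinForm.isAdjointPairLeftAdjointOfNondegenerate B hB a v w,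
      fun a ψ h => (LinearMap.BilinForm.isAdjointPair_iff_eq_of_nondegenerate B hB ψ a).mp h⟩
  -- properties of the adjoint
  have hadj_mul : ∀ a b, adj (a * b) = adj b * adj a := by
    intro a b
    symm
    apply huniq
    intro v w
    show B (adj b (adj a v)) w = B v (a (b w))
    rw [hadj, hadj]
  have hadj_one : adj 1 = 1 := by
    symm; apply huniq; intro v w; rfl
  have hadj_add : ∀ a b, adj (a + b) = adj a + adj b := by
    intro a b; symm; apply huniq; intro v w
    show B (adj a v + adj b v) w = B v (a w + b w)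
    rw [map_add, LinearMap.add_apply, hadj, hadj, map_add]
  have hadj_smul : ∀ (c : F) a, adj (c • a) = c • adj a := by
    intro c a; symm; apply huniq; intro v w
    show B (c • adj a v) w = B v (c • a w)
    rw [map_smul, LinearMap.smul_apply, hadj, map_smul]
  have hadj_zero : adj 0 = 0 := by
    symm; apply huniq; intro v w
    show B 0 w = B v 0
    rw [map_zero, map_zero, LinearMap.zero_apply]
  have hadj_adj : ∀ a, adj (adj a) = a := by
    intro a; symm; apply huniq; intro v w
    rw [hBsymm, ← hadj, hBsymm]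
  have hadj_iso : ∀ s : W →ₗ[F] W, (∀ v, Q (s v) = Q v) → adj s * s = 1 := by
    intro s hs
    apply LinearMap.ext; intro v
    have h0 : ∀ w, B (adj s (s v) - v) w = 0 := by
      intro w
      rw [map_sub, LinearMap.sub_apply, hadj, hiso s hs, sub_self]
    have h1 := hB.1 _ h0
    show adj s (s v) = v
    exact sub_eq_zero.mp h1
  have hxinv : adj x * x = 1 := hadj_iso x hxQ
  have hxinv' : x * adj x = 1 := mul_eq_one_comm.mp hxinv
  -- the adjoint preserves the commutant
  have hcomm : ∀ a : W →ₗ[F] W, a * x = x * a → adj a * x = x * adj a := by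
    intro a ha
    have h1 : adj x * adj a = adj a * adj x := by rw [← hadj_mul, ← hadj_mul, ha]
    calc adj a * x = (x * adj x) * (adj a * x) := by rw [hxinv', one_mul]
      _ = x * (adj x * adj a) * x := by simp only [mul_assoc]
      _ = x * (adj a * adj x) * x := by rw [h1]
      _ = x * adj a * (adj x * x) := by simp only [mul_assoc]
      _ = x * adj a := by rw [hxinv, mul_one]
  have hσex : ∀ z : K, ∃ z' : K, φ z' = adj (φ z) := by
    intro z
    have h1 : φ z * x = x * φ z := (hrange _).mpr ⟨z, rfl⟩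
    exact (hrange _).mp (hcomm _ h1)
  choose σf hσf using hσex
  let σ : K →ₐ[F] K :=
    { toFun := σf
      map_one' := hφ (by rw [hσf, map_one, hadj_one])
      map_mul' := fun a b => hφ (by
        rw [hσf, map_mul φ a b, hadj_mul, ← hσf a, ← hσf b, ← map_mul, mul_comm])
      map_zero' := hφ (by rw [hσf, map_zero, hadj_zero])
      map_add' := fun a b => hφ (by rw [hσf, map_add, map_add, hadj_add, hσf, hσf])
      commutes' := fun c => hφ (by
        rw [hσf, AlgHom.commutes, Algebra.algebraMap_eq_smul_one, hadj_smul, hadj_one]) }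
  have hσapp : ∀ z, σ z = σf z := fun z => rfl
  have hσσ : σ * σ = 1 := by
    apply AlgHom.ext; intro z
    apply hφ
    show φ (σf (σf z)) = φ z
    rw [hσf, hσf, hadj_adj]
  have hσ_iso : ∀ (s : W →ₗ[F] W) (τ : K), φ τ = s → (∀ v, Q (s v) = Q v) → σ τ * τ = 1 := by
    intro s τ hτ hs
    apply hφ
    rw [map_mul, map_one, hσapp, hσf, hτ]
    exact hadj_iso s hs
  -- the Frobenius
  have hfin : finrank F K = 2 * d := by
    have h1 : Fintype.card K = Fintype.card F ^ finrank F K := Module.card_eq_pow_finrank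
    rw [hcard, hd] at h1
    exact (Nat.pow_right_injective Fintype.one_lt_card h1).symm
  obtain ⟨⟨i, hi⟩, hiσ⟩ := (FiniteField.bijective_frobeniusAlgHom_pow F K).2 σ
  simp only at hiσ
  have hi' : i < 2 * d := by rw [← hfin]; exact hi
  have hi2 : i = d := by
    have h2 : FiniteField.frobeniusAlgHom F K ^ (2 * i) = 1 := by
      rw [pow_mul', hiσ, pow_two, hσσ]
    have h3 := orderOf_dvd_of_pow_eq_one h2
    rw [FiniteField.orderOf_frobeniusAlgHom, hfin] at h3
    obtain ⟨k, hk⟩ := h3
    rcases k with _ | _ | k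
    · -- `i = 0`: `σ = 1`
      exfalso
      have hi0 : i = 0 := by omega
      rw [hi0, pow_zero] at hiσ
      obtain ⟨ξ, hξ⟩ := (hrange x).mp rfl
      have h4 := hσ_iso x ξ hξ hxQ
      rw [← hiσ] at h4
      apply hxx
      rw [← hξ, ← map_mul]
      have h5 : ξ * ξ = 1 := h4
      rw [h5, map_one]
    · omega
    · exfalso
      have : 2 * d * 2 ≤ 2 * d * (k + 1 + 1) := Nat.mul_le_mul_left _ (by omega)
      omega
  have hσpow : ∀ z : K, σ z = z ^ (Fintype.card F ^ d) := by
    intro z
    rw [← hiσ, hi2, AlgHom.coe_pow, FiniteField.coe_frobeniusAlgHom, pow_iterate]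
  obtain ⟨τ, hτ⟩ := (hrange t).mp htx
  have h1 := hσ_iso t τ hτ htQ
  rw [hσpow] at h1
  rw [← hτ, ← map_pow, pow_succ, h1, map_one]

/-- **[TEXP]** -/
theorem pkgTorusExp : PkgTorusExp.{u} := by
  intro hModel F _ _ W _ _ _ Q _ hB d hd x hx hxQ hxx t htx htQ
  obtain ⟨K, hK1, hK2, hK3, φ, hφ, hrange, hcard⟩ := hModel x hx
  exact texp_aux Q hB d hd x hxQ hxx K φ hφ hrange hcard t htx htQ

end Cfsg.Agent.Lib.Helper72.Spec
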